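import Cfsg.Agent.KnownA.Cover.Embed

/-! The centres of Steinberg's groups of types E₆ and E₇. -/

set_option autoImplicit false
set_option Elab.async false

universe u

namespace Cfsg.Agent.KnownA.Cover

open Cfsg.Lie Cfsg.Agent.Chev

/-- The roots of E₆ as roots of E₇. -/
def e67 : Array ℕ :=
  #[6, 10, 13, 15, 16, 19, 21, 22, 24, 25, 26, 28, 29, 30, 31, 32, 35, 37, 38, 40, 41, 42, 44, 45, 46, 47, 49, 50, 51, 52, 54, 55, 56, 58, 59, 61, 64, 66, 67, 69, 70, 71, 73, 74, 75, 76, 78, 79, 80, 81, 83, 84, 85, 87, 88, 90, 93, 94, 95, 96, 97, 99, 100, 101, 103, 104, 106, 109, 110, 112, 115, 119]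

/-- The roots of E₇ as roots of E₈. -/
def e78 : Array ℕ :=
  #[13, 20, 25, 29, 32, 34, 35, 39, 42, 44, 45, 48, 50, 51, 53, 54, 55, 58, 60, 61, 63, 64, 65, 67, 68, 69, 70, 72, 73, 74, 75, 76, 77, 80, 82, 83, 85, 86, 87, 89, 90, 91, 92, 94, 95, 96, 97, 98, 100, 101, 102, 103, 104, 106, 107, 108, 109, 111, 112, 113, 115, 116, 118, 121, 123, 124, 126, 127, 128, 130, 131, 132, 133, 135, 136, 137, 138, 139, 141, 142, 143, 144, 145, 147, 148, 149, 150, 152, 153, 154, 156, 157, 159, 162, 163, 164, 165, 166, 167, 169, 170, 171, 172, 174, 175, 176, 178, 179, 181, 184, 185, 186, 188, 189, 191, 194, 195, 197, 200, 204, 205, 207, 210, 214, 219, 226]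

/-- One row of `embCheck`. -/
def embRow (A B : ChevalleyDatum) (e : Array ℕ) (r : ℕ) : Bool :=
  decide (e.getD r 0 < B.nroots) && e.getD (A.neg r) 0 == B.neg (e.getD r 0) &&
    (List.range A.nroots).all fun s =>
      s == r || s == A.neg r || (e.getD s 0 != e.getD r 0 && e.getD s 0 != B.neg (e.getD r 0) &&
        (A.commTerms r s).map (fun c => (e.getD c.1 0, c.2)) ==
          B.commTerms (e.getD r 0) (e.getD s 0))

theorem embCheck_of_rows {A B : ChevalleyDatum} {e : Array ℕ} (h : ∀ r < A.nroots, embRow A B e r = true)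
    (h2 : ((List.range A.rank).all fun i => e.getD (A.simple i) 0 == B.simple i) = true) :
    embCheck A B e = true := by
  unfold embCheck
  rw [Bool.and_eq_true]
  exact ⟨List.all_eq_true.mpr fun r hr => h r (List.mem_range.1 hr), h2⟩

theorem embE67_rows0 : (List.range' 0 18).all (embRow chevE6 chevE7 e67) = true := by decide +kernel

theorem embE67_rows1 : (List.range' 18 18).all (embRow chevE6 chevE7 e67) = true := by decide +kernel

theorem embE67_rows2 : (List.range' 36 18).all (embRow chevE6 chevE7 e67) = true := by decide +kernel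

theorem embE67_rows3 : (List.range' 54 18).all (embRow chevE6 chevE7 e67) = true := by decide +kernel

theorem embE67 : embCheck chevE6 chevE7 e67 = true := by
  refine embCheck_of_rows (fun r hr => ?_) (by decide +kernel)
  have hr' : r < 72 := hr
  by_cases h0 : r < 18
  · exact List.all_eq_true.mp embE67_rows0 r (List.mem_range'_1.mpr ⟨by omega, by omega⟩)
  by_cases h1 : r < 36
  · exact List.all_eq_true.mp embE67_rows1 r (List.mem_range'_1.mpr ⟨by omega, by omega⟩)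
  by_cases h2 : r < 54
  · exact List.all_eq_true.mp embE67_rows2 r (List.mem_range'_1.mpr ⟨by omega, by omega⟩)
  exact List.all_eq_true.mp embE67_rows3 r (List.mem_range'_1.mpr ⟨by omega, by omega⟩)

theorem embE78_rows0 : (List.range' 0 14).all (embRow chevE7 chevE8 e78) = true := by decide +kernel

theorem embE78_rows1 : (List.range' 14 14).all (embRow chevE7 chevE8 e78) = true := by decide +kernel

theorem embE78_rows2 : (List.range' 28 14).all (embRow chevE7 chevE8 e78) = true := by decide +kernel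

theorem embE78_rows3 : (List.range' 42 14).all (embRow chevE7 chevE8 e78) = true := by decide +kernel

theorem embE78_rows4 : (List.range' 56 14).all (embRow chevE7 chevE8 e78) = true := by decide +kernel

theorem embE78_rows5 : (List.range' 70 14).all (embRow chevE7 chevE8 e78) = true := by decide +kernel

theorem embE78_rows6 : (List.range' 84 14).all (embRow chevE7 chevE8 e78) = true := by decide +kernel

theorem embE78_rows7 : (List.range' 98 14).all (embRow chevE7 chevE8 e78) = true := by decide +kernel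

theorem embE78_rows8 : (List.range' 112 14).all (embRow chevE7 chevE8 e78) = true := by decide +kernel

theorem embE78 : embCheck chevE7 chevE8 e78 = true := by
  refine embCheck_of_rows (fun r hr => ?_) (by decide +kernel)
  have hr' : r < 126 := hr
  by_cases h0 : r < 14
  · exact List.all_eq_true.mp embE78_rows0 r (List.mem_range'_1.mpr ⟨by omega, by omega⟩)
  by_cases h1 : r < 28
  · exact List.all_eq_true.mp embE78_rows1 r (List.mem_range'_1.mpr ⟨by omega, by omega⟩)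
  by_cases h2 : r < 42
  · exact List.all_eq_true.mp embE78_rows2 r (List.mem_range'_1.mpr ⟨by omega, by omega⟩)
  by_cases h3 : r < 56
  · exact List.all_eq_true.mp embE78_rows3 r (List.mem_range'_1.mpr ⟨by omega, by omega⟩)
  by_cases h4 : r < 70
  · exact List.all_eq_true.mp embE78_rows4 r (List.mem_range'_1.mpr ⟨by omega, by omega⟩)
  by_cases h5 : r < 84
  · exact List.all_eq_true.mp embE78_rows5 r (List.mem_range'_1.mpr ⟨by omega, by omega⟩)
  by_cases h6 : r < 98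
  · exact List.all_eq_true.mp embE78_rows6 r (List.mem_range'_1.mpr ⟨by omega, by omega⟩)
  by_cases h7 : r < 112
  · exact List.all_eq_true.mp embE78_rows7 r (List.mem_range'_1.mpr ⟨by omega, by omega⟩)
  exact List.all_eq_true.mp embE78_rows8 r (List.mem_range'_1.mpr ⟨by omega, by omega⟩)

variable {K : Type u} [Field K] [Fintype K]

theorem card_centerE6 :
    Nat.card (Subgroup.center (chevE6.SteinbergGroup K)) = (Fintype.card K - 1).gcd 3 := by
  have hinj := torusHom_inj (K := K) certE6 certE7 cornerE6 embE67 (by decide +kernel)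
    (!![0, -1, 1, 0, 0, 0; -1, -1, 1, 0, 0, 0; -1, -2, 2, 0, 0, 0; -2, -3, 2, 0, 0, 0; -2, -3, 1, -1, 0, 0; -2, -3, 0, -2, -1, 0; -2, -3, -1, -3, -2, -1] : Matrix (Fin 7) (Fin 6) ℤ)
    (by decide +kernel)
  refine (card_center certE6 cornerE6 coxE6 hinj (U := !![-1, 0, 0, 0, 0, 0; 0, -1, 0, 0, 0, 0; 1, -2, 0, -1, 0, 0; 2, -3, 0, -2, -1, 0; -2, 1, -1, 0, 0, 0; -5, 0, -4, -3, -2, -1]) (Ui := !![-1, 0, 0, 0, 0, 0; 0, -1, 0, 0, 0, 0; 2, -1, 0, 0, -1, 0; -1, 2, -1, 0, 0, 0; 0, -1, 2, -1, 0, 0; 0, 0, -1, 2, 4, -1])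
    (V := !![0, 0, 0, 0, 1, -2; 0, 0, 0, 0, 2, -3; 1, 0, 0, 0, 2, -4; 0, 1, 0, 0, 4, -6; 0, 0, 1, 0, 4, -5; 0, 0, 0, 1, 4, -4]) (Vi := !![-2, 0, 1, 0, 0, 0; 0, -2, 0, 1, 0, 0; 2, -3, 0, 0, 1, 0; 4, -4, 0, 0, 0, 1; -3, 2, 0, 0, 0, 0; -2, 1, 0, 0, 0, 0]) ![1, 1, 1, 1, 1, 3]
    (by decide +kernel) (by decide +kernel) (by decide +kernel) (by decide +kernel)).trans ?_
  show ∏ i : Fin 6, _ = _
  simp [Fin.prod_univ_succ]

theorem card_centerE7 :
    Nat.card (Subgroup.center (chevE7.SteinbergGroup K)) = (Fintype.card K - 1).gcd 2 := by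
  have hinj := torusHom_inj (K := K) certE7 certE8 cornerE7 embE78 (by decide +kernel)
    (!![0, -1, 1, 2, 0, 0, -2; -1, -1, 1, 3, 0, 0, -3; -1, -2, 2, 4, 0, 0, -4; -2, -3, 2, 6, 0, 0, -6; -2, -3, 1, 4, 0, 0, -5; -2, -3, 0, 2, -1, 0, -4; -2, -3, -1, 0, -2, -1, -3; -2, -3, -2, -2, -3, -2, -3] : Matrix (Fin 8) (Fin 7) ℤ)
    (by decide +kernel)
  refine (card_center certE7 cornerE7 coxE7 hinj (U := !![-1, 0, 0, 0, 0, 0, 0; 0, -1, 0, 0, 0, 0, 0; 1, -2, 0, -1, 0, 0, 0; 2, -3, 0, -2, -1, 0, 0; 3, -4, 0, -3, -2, -1, 0; -2, 1, -1, 0, 0, 0, 0; -4, -1, -4, -4, -3, -2, -1]) (Ui := !![-1, 0, 0, 0, 0, 0, 0; 0, -1, 0, 0, 0, 0, 0; 2, -1, 0, 0, 0, -1, 0; -1, 2, -1, 0, 0, 0, 0; 0, -1, 2, -1, 0, 0, 0; 0, 0, -1, 2, -1, 0, 0; 0, 0, 0, -1, 2, 4, -1])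
    (V := !![0, 0, 0, 0, 0, 1, -2; 0, 0, 0, 0, 0, 2, -3; 1, 0, 0, 0, 0, 2, -4; 0, 1, 0, 0, 0, 4, -6; 0, 0, 1, 0, 0, 4, -5; 0, 0, 0, 1, 0, 4, -4; 0, 0, 0, 0, 1, 4, -3]) (Vi := !![-2, 0, 1, 0, 0, 0, 0; 0, -2, 0, 1, 0, 0, 0; 2, -3, 0, 0, 1, 0, 0; 4, -4, 0, 0, 0, 1, 0; 6, -5, 0, 0, 0, 0, 1; -3, 2, 0, 0, 0, 0, 0; -2, 1, 0, 0, 0, 0, 0]) ![1, 1, 1, 1, 1, 1, 2]
    (by decide +kernel) (by decide +kernel) (by decide +kernel) (by decide +kernel)).trans ?_
  show ∏ i : Fin 7, _ = _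
  simp [Fin.prod_univ_succ]

end Cfsg.Agent.KnownA.Cover
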