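import Cfsg.Agent.KnownA.Cover.TorusSt

/-! Steinberg's groups of types G₂, F₄, E₈ have trivial centre. -/

set_option autoImplicit false

universe u

namespace Cfsg.Agent.KnownA.Cover

open Cfsg.Lie Cfsg.Agent.Chev

variable {K : Type u} [Field K]

theorem centreG2 : Subgroup.center (chevG2.SteinbergGroup K) = ⊥ :=
  center_bot_of_unimodular certG2 cornerG2 coxG2
    (!![1, 2; 0, 1] * !![0, -1; 1, 2] : Matrix (Fin 2) (Fin 2) ℤ) (by decide +kernel)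

theorem centreF4 : Subgroup.center (chevF4.SteinbergGroup K) = ⊥ :=
  center_bot_of_unimodular certF4 cornerF4 coxF4
    (!![0, 0, 1, -2; 1, 0, 2, -4; 0, 0, 2, -3; 0, 1, 2, -2] *
      !![-1, 0, 0, 0; 1, 0, -1, 0; -2, -1, 0, 0; -2, -2, -2, -1] : Matrix (Fin 4) (Fin 4) ℤ)
    (by decide +kernel)

theorem centreE8 : Subgroup.center (chevE8.SteinbergGroup K) = ⊥ :=
  center_bot_of_unimodular certE8 cornerE8 coxE8
    (!![0, 0, 0, 0, 0, 0, 1, -2; 0, 0, 0, 0, 0, 0, 2, -3; 1, 0, 0, 0, 0, 0, 2, -4; 0, 1, 0, 0, 0, 0, 4, -6; 0, 0, 1, 0, 0, 0, 4, -5; 0, 0, 0, 1, 0, 0, 4, -4; 0, 0, 0, 0, 1, 0, 4, -3; 0, 0, 0, 0, 0, 1, 4, -2] *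
      !![-1, 0, 0, 0, 0, 0, 0, 0; 0, -1, 0, 0, 0, 0, 0, 0; 1, -2, 0, -1, 0, 0, 0, 0; 2, -3, 0, -2, -1, 0, 0, 0; 3, -4, 0, -3, -2, -1, 0, 0; 4, -5, 0, -4, -3, -2, -1, 0; -2, 1, -1, 0, 0, 0, 0, 0; -3, -2, -4, -5, -4, -3, -2, -1] : Matrix (Fin 8) (Fin 8) ℤ)
    (by decide +kernel)

end Cfsg.Agent.KnownA.Cover
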