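import Cfsg.Agent.KnownA.Cover.TorusSt

/-!
Embeddings of tabulated data (E₆ in E₇ in E₈) and the order of the centre of Steinberg's group.
-/

set_option autoImplicit false

universe u

namespace Cfsg.Agent.KnownA.Cover

open Cfsg.Lie Cfsg.Agent.Chev

/-- The roots of `A` as roots of `B` with last coefficient `0`. -/
def embList (A B : ChevalleyDatum) : List ℕ :=
  (List.range A.nroots).map fun r => ((List.range B.nroots).find? fun s =>
    (B.coroot.getD s #[]).toList == (A.coroot.getD r #[]).toList ++ [0]).getD B.nroots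

/-- The list `e` embeds `A` into `B` with the same structure constants. -/
def embCheck (A B : ChevalleyDatum) (e : Array ℕ) : Bool :=
  (List.range A.nroots).all (fun r => decide (e.getD r 0 < B.nroots) &&
    e.getD (A.neg r) 0 == B.neg (e.getD r 0) &&
    (List.range A.nroots).all fun s =>
      s == r || s == A.neg r || (e.getD s 0 != e.getD r 0 && e.getD s 0 != B.neg (e.getD r 0) &&
        (A.commTerms r s).map (fun c => (e.getD c.1 0, c.2)) ==
          B.commTerms (e.getD r 0) (e.getD s 0))) &&
  (List.range A.rank).all fun i => e.getD (A.simple i) 0 == B.simple i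

variable {A B : ChevalleyDatum} (CA : Cert.{u} A) (CB : Cert.{u} B) {e : Array ℕ}
  {K : Type u} [Field K]
include CA CB

theorem exists_embHom (he : embCheck A B e = true) :
    ∃ ψ : A.SteinbergGroup K →* GL B.Idx K,
      ∀ i < A.rank, ∀ t : K, t ≠ 0 → ψ (hSt A i t) = CB.hu (B.simple i) t := by
  simp only [embCheck, Bool.and_eq_true, Bool.or_eq_true, List.all_eq_true, List.mem_range,
    beq_iff_eq, bne_iff_ne, ne_eq, decide_eq_true_eq] at he
  obtain ⟨hroot, hsimple⟩ := he
  let f : Fin A.nroots × K → GL B.Idx K := fun p => CB.xu (e.getD (p.1 : ℕ) 0) p.2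
  have hx : ∀ r < A.nroots, ∀ t : K, FreeGroup.lift f (A.stX r t) = CB.xu (e.getD r 0) t := by
    intro r hr t
    simp [ChevalleyDatum.stX, hr, f]
  have hw : ∀ L : List (ℕ × K), (∀ p ∈ L, p.1 < A.nroots) →
      FreeGroup.lift f (A.stWord L) = CB.wu (L.map fun p => (e.getD p.1 0, p.2)) := by
    intro L hL
    rw [ChevalleyDatum.stWord, map_list_prod, List.map_map, Cert.wu, List.map_map]
    congr 1
    exact List.map_congr_left fun p hp => hx p.1 (hL p hp) p.2
  have hh : ∀ r < A.nroots, ∀ t : K,
      FreeGroup.lift f (A.stH r t) = CB.hu (e.getD r 0) t := by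
    intro r hr t
    rw [ChevalleyDatum.stH, hw _ (by
      intro p hp
      simp only [ChevalleyDatum.hWord, ChevalleyDatum.nWord, List.mem_append, List.mem_cons,
        List.not_mem_nil, or_false] at hp
      rcases hp with (rfl | rfl | rfl) | (rfl | rfl | rfl) <;>
        first | exact hr | exact CA.neg_lt r hr)]
    simp only [Cert.hu, ChevalleyDatum.hWord, ChevalleyDatum.nWord, List.map_append, List.map_cons,
      List.map_nil, (hroot r hr).1.2]
  have hrels : ∀ g ∈ A.steinbergRels K, FreeGroup.lift f g = 1 := by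
    rintro g ((⟨r, t, v, hr, rfl⟩ | ⟨r, s, t, v, hr, hs, hne, hneg, rfl⟩) |
      ⟨r, t, v, hr, ht, hv, rfl⟩)
    · simp only [map_mul, map_inv, hx r hr]
      rw [CB.xu_add, mul_inv_cancel]
    · obtain ⟨⟨n1, n2⟩, hterms⟩ := ((hroot r hr).2 s hs).resolve_left (not_or.2 ⟨hne, hneg⟩)
      have hmap : (A.commWord K r s t v).map (fun p => (e.getD p.1 0, p.2)) =
          B.commWord K (e.getD r 0) (e.getD s 0) t v := by
        simp only [ChevalleyDatum.commWord]
        rw [← hterms, List.map_map, List.map_map]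
        rfl
      simp only [map_mul, map_inv, hx r hr, hx s hs]
      rw [hw _ (fun p hp => by
        obtain ⟨c, hc, rfl⟩ := List.mem_map.1 hp
        exact CA.commTerms_lt hr hs c hc), hmap, mul_assoc (_⁻¹ * _⁻¹),
        CB.xu_comm (hroot r hr).1.1 (hroot s hs).1.1 n1 n2, mul_inv_eq_one]
      group
    · simp only [map_mul, map_inv, hh r hr]
      rw [mul_inv_eq_one]
      exact CB.hu_mul (hroot r hr).1.1 ht hv
  refine ⟨PresentedGroup.toGroup hrels, fun i hi t _ => ?_⟩
  have hext : (PresentedGroup.toGroup hrels).comp (PresentedGroup.mk (A.steinbergRels K)) =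
      FreeGroup.lift f := FreeGroup.ext_hom _ _ fun p => by
    rw [FreeGroup.lift_apply_of]
    exact PresentedGroup.toGroup.of hrels
  have h := DFunLike.congr_fun hext (A.stH (A.simple i) t)
  rw [hh _ (CA.simple_lt i hi), hsimple i hi] at h
  exact h

theorem torusHom_inj (hc : cornerCheck A = true) (he : embCheck A B e = true)
    (hl : A.rank ≤ B.rank) (Bm : Matrix (Fin B.rank) (Fin A.rank) ℤ)
    (hBm : (Matrix.of fun (k : Fin A.rank) (j : Fin B.rank) =>
      B.cartan (k : ℕ) (B.simple (j : ℕ))) * Bm = 1) :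
    Function.Injective (torusHom (K := K) CA hc) := by
  obtain ⟨ψ, hψ⟩ := exists_embHom (K := K) CA CB he
  rw [injective_iff_map_eq_one]
  intro c hone
  have key : ∀ (S : Finset (Fin A.rank)) (hS : (S : Set (Fin A.rank)).Pairwise
      (Function.onFun Commute fun k => hStHom CA k (c k))) {q : ℕ}, q < B.nroots → ∀ v : K,
      ψ (S.noncommProd (fun k => hStHom CA k (c k)) hS) * CB.xu q v *
        (ψ (S.noncommProd (fun k => hStHom CA k (c k)) hS))⁻¹ =
      CB.xu q ((∏ k ∈ S, ((c k : K) ^ B.cartan k q)) * v) := by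
    intro S
    induction S using Finset.induction_on with
    | empty => intro _ q _ v; simp
    | insert a S ha ih =>
      intro hS q hq v
      rw [Finset.noncommProd_insert_of_notMem _ _ _ _ ha, Finset.prod_insert ha, map_mul,
        mul_assoc _ _ v]
      set P := S.noncommProd (fun k => hStHom CA k (c k)) _
      have ha' : (a : ℕ) < B.rank := lt_of_lt_of_le a.isLt hl
      have e1 : CB.hu (B.simple a) (c a : K) *
          CB.xu q ((∏ k ∈ S, ((c k : K) ^ B.cartan k q)) * v) * (CB.hu (B.simple a) (c a : K))⁻¹ =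
          CB.xu q ((c a : K) ^ B.cartan a q * ((∏ k ∈ S, ((c k : K) ^ B.cartan k q)) * v)) := by
        rw [CB.hu_conj_xu (CB.simple_lt a ha') hq (c a).ne_zero, mul_inv_cancel_right, pairChar,
          CB.pairInt_simple ha']
      rw [← e1, ← ih (hS.mono fun x hx => Finset.mem_insert_of_mem hx) hq v,
        ← hψ a a.isLt _ (c a).ne_zero]
      show ψ (hStHom CA a (c a)) * ψ P * _ * (ψ (hStHom CA a (c a)) * ψ P)⁻¹ =
        ψ (hStHom CA a (c a)) * (ψ P * _ * (ψ P)⁻¹) * (ψ (hStHom CA a (c a)))⁻¹
      group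
  have hchar : ∀ j : Fin B.rank, (∏ k : Fin A.rank, (c k) ^ B.cartan k (B.simple j)) = 1 := by
    intro j
    have hj := CB.simple_lt j j.isLt
    have h := key Finset.univ (fun x _ y _ hxy => hStHom_comm CA hc hxy _ _) hj 1
    rw [torusHom, MonoidHom.noncommPiCoprod_apply] at hone
    rw [hone, map_one, one_mul, inv_one, mul_one, mul_one] at h
    have e := (xu_eq CB hj hj one_ne_zero h).2
    apply Units.ext
    simpa using e
  funext m
  have h : ∏ j : Fin B.rank,
      (∏ k : Fin A.rank, (c k) ^ B.cartan k (B.simple j)) ^ Bm j m = 1 :=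
    Finset.prod_eq_one fun j _ => by rw [hchar j, one_zpow]
  simp_rw [← Finset.prod_zpow, ← zpow_mul] at h
  rw [Finset.prod_comm] at h
  simp_rw [← zpow_sum_eq] at h
  have hone' : ∀ k, ∑ j : Fin B.rank, B.cartan k (B.simple j) * Bm j m =
      (if k = (m : ℕ) then 1 else 0) ∨ ¬ k < A.rank := by
    intro k
    by_cases hk : k < A.rank
    · refine Or.inl ?_
      have := congrFun (congrFun hBm ⟨k, hk⟩) m
      rw [Matrix.mul_apply, Matrix.one_apply] at this
      simpa [Fin.ext_iff] using this
    · exact Or.inr hk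
  rw [Finset.prod_eq_single m (fun k _ hkm => by
    rw [(hone' k).resolve_right (not_not_intro k.isLt), if_neg (Fin.val_ne_of_ne hkm), zpow_zero])
    (fun hm => absurd (Finset.mem_univ _) hm),
    (hone' m).resolve_right (not_not_intro m.isLt), if_pos rfl, zpow_one] at h
  exact h

omit CB in
theorem card_center [Fintype K] (hc : cornerCheck A = true) {M : CoxeterMatrix (Fin A.rank)}
    (hM : CoxOK A M) (hinj : Function.Injective (torusHom (K := K) CA hc))
    {U Ui V Vi : Matrix (Fin A.rank) (Fin A.rank) ℤ} (d : Fin A.rank → ℕ)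
    (hU : U * Ui = 1) (hU' : Ui * U = 1) (hV : V * Vi = 1)
    (h : U * cartMat A * V = Matrix.diagonal fun i => (d i : ℤ)) :
    Nat.card (Subgroup.center (A.SteinbergGroup K)) = ∏ i, (Fintype.card K - 1).gcd (d i) := by
  classical
  rw [center_eq_map CA hc hM,
    ← Nat.card_congr (Subgroup.equivMapOfInjective (torusMap Kˣ (cartMat A)).ker _ hinj).toEquiv]
  have key := card_range_torusMap (G := Kˣ) d hU hU' hV h
  have hn : Nat.card Kˣ = Fintype.card K - 1 := by
    rw [Nat.card_eq_fintype_card, Fintype.card_units]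
  have h2 := (torusMap Kˣ (cartMat A)).ker.card_mul_index
  rw [Subgroup.index_ker, Nat.card_fun, Nat.card_eq_fintype_card (α := Fin A.rank),
    Fintype.card_fin, ← key, hn] at h2
  exact Nat.eq_of_mul_eq_mul_right Nat.card_pos h2

end Cfsg.Agent.KnownA.Cover
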